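import Mathlib
import Cfsg.Agent.Exceptional.Coherent
import Cfsg.Agent.Exceptional.Bessel

/-!
Adding a character to a coherent set, for an arbitrary source group.
-/

set_option autoImplicit false

namespace CfsgLib.FeitCoh

universe u v

theorem coherent_insert {N : Type u} [Group N] [Fintype N] {G : Type v} [Group G] [Fintype G]
    (S₀ : Finset (N → ℂ)) (χ : N → ℂ) (hirr : ∀ ξ ∈ S₀, Cfsg.IsIrrCharacter N ξ)
    (hχ : Cfsg.IsIrrCharacter N χ) (hχS : χ ∉ S₀) (d : (N → ℂ) → ℕ)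
    [DecidableEq (N → ℂ)]
    (hd : ∀ ξ ∈ insert χ S₀, ξ 1 = (d ξ : ℂ)) (τ : (N → ℂ) → (G → ℂ))
    (hτ : Cfsg.IsLinearIsometryOn (Cfsg.zspanOn (↑(insert χ S₀) : Set (N → ℂ)) {1}ᶜ) τ)
    (hτ1 : ∀ α ∈ Cfsg.zspanOn (↑(insert χ S₀) : Set (N → ℂ)) {1}ᶜ, τ α 1 = 0)
    (hcoh : Cfsg.IsCoherent (↑S₀ : Set (N → ℂ)) {1}ᶜ τ) (ψ : N → ℂ) (hψ : ψ ∈ S₀)
    (hdvd : d ψ ∣ d χ) (hlt : 2 * d ψ * d χ < ∑ ξ ∈ S₀, d ξ ^ 2) :
    Cfsg.IsCoherent (↑(insert χ S₀) : Set (N → ℂ)) {1}ᶜ τ := by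
  obtain ⟨-, τ₁, hτ₁, hag⟩ := hcoh
  set d₁ := d ψ with hd₁
  obtain ⟨a, ha⟩ := hdvd
  have hdS : ∀ ξ ∈ S₀, ξ 1 = (d ξ : ℂ) := fun ξ h => hd ξ (Finset.mem_insert_of_mem h)
  have hdχ : χ 1 = (d χ : ℂ) := hd χ (Finset.mem_insert_self _ _)
  have hpos : ∀ ξ, Cfsg.IsIrrCharacter N ξ → ξ 1 = (d ξ : ℂ) → 0 < d ξ := fun ξ h h' => by
    refine Nat.pos_of_ne_zero fun h0 => CfsgLib.CharBasics.apply_one_ne_zero h ?_
    rw [h', h0, Nat.cast_zero]
  have hd₁0 : 0 < d₁ := hpos ψ (hirr ψ hψ) (hdS ψ hψ)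
  have ha0 : 0 < a := by
    have := hpos χ hχ hdχ
    rw [ha] at this
    exact Nat.pos_of_mul_pos_left this
  have horth : CfsgLib.Exceptional.OrthoSet (↑(insert χ S₀) : Set (N → ℂ)) :=
    CfsgLib.Exceptional.OrthoSet.of_irr fun ξ h => by
      rcases Finset.mem_insert.1 (Finset.mem_coe.1 h) with rfl | h
      · exact hχ
      · exact hirr ξ h
  have hψS : ψ ∈ Cfsg.zspan (↑S₀ : Set (N → ℂ)) := Submodule.subset_span hψ
  have hτ₁' : Cfsg.IsLinearIsometryOn ((Submodule.span ℤ (↑S₀ : Set (N → ℂ)) : Submodule ℤ (N → ℂ)) : Set (N → ℂ)) τ₁ := hτ₁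
  have hτ' : Cfsg.IsLinearIsometryOn
      ((CfsgLib.Exceptional.onSub (↑(insert χ S₀) : Set (N → ℂ)) ({1}ᶜ : Set N) : Submodule ℤ (N → ℂ)) : Set (N → ℂ)) τ := hτ
  have hθ : ∀ ξ ∈ S₀, (d₁ : ℤ) • ξ - (d ξ : ℤ) • ψ ∈ Cfsg.zspanOn (↑S₀ : Set (N → ℂ)) ({1}ᶜ : Set N) :=
    fun ξ h => CfsgLib.Exceptional.mem_on_one.2 ⟨sub_mem (S := Submodule ℤ (N → ℂ))
      (Submodule.smul_mem _ _ (Submodule.subset_span h)) (Submodule.smul_mem _ _ hψS),
      by simp [hdS ξ h, hdS ψ hψ, hd₁, mul_comm]⟩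
  have hτθ : ∀ ξ ∈ S₀, τ ((d₁ : ℤ) • ξ - (d ξ : ℤ) • ψ) = (d₁ : ℤ) • τ₁ ξ - (d ξ : ℤ) • τ₁ ψ := fun ξ h => by
    rw [← hag _ (hθ ξ h), CfsgLib.Exceptional.iso_sub hτ₁' (Submodule.smul_mem _ _ (Submodule.subset_span h))
      (Submodule.smul_mem _ _ hψS), CfsgLib.Exceptional.iso_zsmul hτ₁' (Submodule.subset_span h),
      CfsgLib.Exceptional.iso_zsmul hτ₁' hψS]
  have hsub := CfsgLib.Exceptional.zspanOn_mono
    (show (↑S₀ : Set (N → ℂ)) ⊆ ↑(insert χ S₀) from Finset.coe_subset.2 (Finset.subset_insert _ _)) ({1}ᶜ : Set N)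
  have hE : χ - (a : ℤ) • ψ ∈ Cfsg.zspanOn (↑(insert χ S₀) : Set (N → ℂ)) ({1}ᶜ : Set N) :=
    CfsgLib.Exceptional.mem_on_one.2 ⟨sub_mem (S := Submodule ℤ (N → ℂ)) (Submodule.subset_span (by simp))
      (Submodule.smul_mem _ _ (Submodule.subset_span (by simp [hψ]))),
      by simp [hdχ, hdS ψ hψ, ← hd₁, ha, mul_comm]⟩
  set w := τ (χ - (a : ℤ) • ψ) with hw
  have hg1 : ∀ ξ ∈ S₀, Cfsg.IsGeneralizedCharacter G (τ₁ ξ) := fun ξ h => hτ₁.2.2.2 ξ (Submodule.subset_span h)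
  have hin1 : ∀ ξ ∈ S₀, ∀ η ∈ S₀, Cfsg.classInner (τ₁ ξ) (τ₁ η) = Cfsg.classInner ξ η := fun ξ h η h' =>
    hτ₁.2.2.1 ξ (Submodule.subset_span h) η (Submodule.subset_span h')
  have hχne : ∀ ξ ∈ S₀, Cfsg.classInner χ ξ = 0 := fun ξ h =>
    CfsgLib.CharBasics.classInner_ne hχ (hirr ξ h) fun e => hχS (e ▸ h)
  set Y := w + (a : ℤ) • τ₁ ψ with hY
  have hYgen : Cfsg.IsGeneralizedCharacter G Y :=
    CfsgLib.Exceptional.gen_add (hτ.2.2.2 _ hE) (CfsgLib.Exceptional.gen_zsmul (hg1 ψ hψ) _)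
  have hint : ∀ ξ : N → ℂ, ∃ m : ℤ, ξ ∈ S₀ → Cfsg.classInner Y (τ₁ ξ) = m := fun ξ => by
    by_cases h : ξ ∈ S₀
    · obtain ⟨m, hm⟩ := CfsgLib.Exceptional.gen_inner_gen_int hYgen (hg1 ξ h)
      exact ⟨m, fun _ => hm⟩
    · exact ⟨0, fun h' => absurd h' h⟩
  choose y hy using hint
  have hwψ : Cfsg.classInner w (τ₁ ψ) = (y ψ : ℂ) - a := by
    have := hy ψ hψ
    rw [hY, CfsgLib.CharBasics.classInner_add_left, CfsgLib.Exceptional.classInner_zsmul_left, hin1 ψ hψ ψ hψ,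
      CfsgLib.CharBasics.classInner_self (hirr ψ hψ)] at this
    push_cast at this
    linear_combination this
  have hrel : ∀ ξ ∈ S₀, (d₁ : ℤ) * y ξ = (d ξ : ℤ) * y ψ := by
    intro ξ h
    have h1 := hτ.2.2.1 _ hE _ (hsub (hθ ξ h))
    rw [← hw, hτθ ξ h] at h1
    have h2 := hy ξ h
    rw [hY, CfsgLib.CharBasics.classInner_add_left, CfsgLib.Exceptional.classInner_zsmul_left, hin1 ψ hψ ξ h] at h2
    have h3 : Cfsg.classInner w (τ₁ ξ) = (y ξ : ℂ) - (a : ℂ) * Cfsg.classInner ψ ξ := by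
      push_cast at h2
      linear_combination h2
    simp only [CfsgLib.Exceptional.classInner_sub_left, CfsgLib.Exceptional.classInner_sub_right,
      CfsgLib.Exceptional.classInner_zsmul_left, CfsgLib.Exceptional.classInner_zsmul_right, hχne ξ h, hχne ψ hψ,
      h3, hwψ, CfsgLib.CharBasics.classInner_self (hirr ψ hψ)] at h1
    have h4 : ((d₁ * y ξ : ℤ) : ℂ) = ((d ξ * y ψ : ℤ) : ℂ) := by
      push_cast at h1 ⊢
      linear_combination h1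
    exact_mod_cast h4
  have hYY : Cfsg.classInner Y Y = ((1 + 2 * a * y ψ : ℤ) : ℂ) := by
    have h1 : Cfsg.classInner w w = 1 + (a : ℂ) * a := by
      rw [hw, hτ.2.2.1 _ hE _ hE]
      simp only [CfsgLib.Exceptional.classInner_sub_left, CfsgLib.Exceptional.classInner_sub_right,
        CfsgLib.Exceptional.classInner_zsmul_left, CfsgLib.Exceptional.classInner_zsmul_right,
        CfsgLib.CharBasics.classInner_self hχ, CfsgLib.CharBasics.classInner_self (hirr ψ hψ), hχne ψ hψ,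
        CfsgLib.CharBasics.classInner_ne (hirr ψ hψ) hχ fun e => hχS (e ▸ hψ)]
      push_cast; ring
    have h2 : Cfsg.classInner (τ₁ ψ) w = (y ψ : ℂ) - a := by
      rw [CfsgLib.CharBasics.classInner_comm w, hwψ]; simp
    rw [hY]
    simp only [CfsgLib.CharBasics.classInner_add_left, CfsgLib.Exceptional.classInner_add_right,
      CfsgLib.Exceptional.classInner_zsmul_left, CfsgLib.Exceptional.classInner_zsmul_right, hin1 ψ hψ ψ hψ,
      CfsgLib.CharBasics.classInner_self (hirr ψ hψ), hwψ, h1, h2]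
    push_cast; ring
  have hb := CfsgLib.Exceptional.bessel S₀ τ₁ (fun _ => 1) (fun ξ => (y ξ : ℝ)) (fun _ _ => one_pos)
    (fun i hi j hj hne => by rw [hin1 i hi j hj, CfsgLib.CharBasics.classInner_ne (hirr i hi) (hirr j hj) hne])
    (fun i hi => by rw [hin1 i hi i hi, CfsgLib.CharBasics.classInner_self (hirr i hi)]; simp) Y
    (fun i hi => by rw [hy i hi]; simp)
  simp only [div_one, hYY, Complex.intCast_re] at hb
  have hsumle : ∑ ξ ∈ S₀, y ξ ^ 2 ≤ 1 + 2 * a * y ψ := by exact_mod_cast hb.1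
  have hT : (d₁ : ℤ) ^ 2 * ∑ ξ ∈ S₀, y ξ ^ 2 = y ψ ^ 2 * ∑ ξ ∈ S₀, (d ξ : ℤ) ^ 2 := by
    rw [Finset.mul_sum, Finset.mul_sum]
    refine Finset.sum_congr rfl fun ξ h => ?_
    rw [← mul_pow, ← mul_pow, hrel ξ h, mul_comm]
  have hTlt : 2 * (a : ℤ) * (d₁ : ℤ) ^ 2 < ∑ ξ ∈ S₀, (d ξ : ℤ) ^ 2 := by
    have h1 : ((2 * d₁ * d χ : ℕ) : ℤ) < ((∑ ξ ∈ S₀, d ξ ^ 2 : ℕ) : ℤ) := by exact_mod_cast hlt
    rw [ha] at h1
    push_cast at h1
    linarith
  have hb0 : y ψ = 0 := by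
    by_contra hne
    have hy2 : 0 < y ψ ^ 2 := by positivity
    have hD : (0 : ℤ) < (d₁ : ℤ) ^ 2 := by positivity
    have h5 : 2 * (a : ℤ) * y ψ ^ 2 < 1 + 2 * a * y ψ := by
      by_contra hh
      push Not at hh
      nlinarith [mul_lt_mul_of_pos_left hTlt hy2, mul_le_mul_of_nonneg_left hsumle hD.le]
    have h6 : y ψ = 1 := by
      have hA : (1 : ℤ) ≤ a := by exact_mod_cast ha0
      by_contra h7
      rcases lt_or_gt_of_ne h7 with h8 | h8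
      · have h9 : 2 ≤ y ψ * (y ψ - 1) := by
          have : y ψ ≤ -1 := by omega
          nlinarith
        nlinarith [mul_le_mul_of_nonneg_left h9 (by omega : (0 : ℤ) ≤ a)]
      · have h9 : 2 ≤ y ψ * (y ψ - 1) := by nlinarith
        nlinarith [mul_le_mul_of_nonneg_left h9 (by omega : (0 : ℤ) ≤ a)]
    have hsum_eq : ∑ ξ ∈ S₀, y ξ ^ 2 = 1 + 2 * a * y ψ := by
      rw [h6, one_pow, one_mul] at hT
      rw [h6, mul_one] at hsumle ⊢
      refine le_antisymm hsumle ?_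
      by_contra hh
      push Not at hh
      nlinarith [mul_le_mul_of_nonneg_left (Int.lt_add_one_iff.1 (by linarith : ∑ ξ ∈ S₀, y ξ ^ 2 < 2 * a + 1)) hD.le]
    have hYeq : Y = ∑ ξ ∈ S₀, ((y ξ : ℝ) : ℂ) • τ₁ ξ := hb.2 (by exact_mod_cast hsum_eq.ge)
    have hdeg : ∀ ξ ∈ S₀, (d₁ : ℂ) * τ₁ ξ 1 = (d ξ : ℂ) * τ₁ ψ 1 := by
      intro ξ h
      have h1 := hτ1 _ (hsub (hθ ξ h))
      rw [hτθ ξ h] at h1
      simp only [Pi.sub_apply, Pi.smul_apply] at h1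
      simp only [zsmul_eq_mul, Int.cast_natCast] at h1
      linear_combination h1
    have hY1 : Y 1 = (a : ℂ) * τ₁ ψ 1 := by
      rw [hY, Pi.add_apply, hw, hτ1 _ hE, zero_add, Pi.smul_apply, zsmul_eq_mul, Int.cast_natCast]
    have hz : ((∑ ξ ∈ S₀, (d ξ : ℤ) ^ 2 - a * (d₁ : ℤ) ^ 2 : ℤ) : ℂ) * τ₁ ψ 1 = 0 := by
      have h1 : (d₁ : ℂ) ^ 2 * Y 1 = ∑ ξ ∈ S₀, (d ξ : ℂ) ^ 2 * τ₁ ψ 1 := by
        rw [hYeq, Finset.sum_apply, Finset.mul_sum]
        refine Finset.sum_congr rfl fun ξ h => ?_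
        have h2 : (d₁ : ℂ) * (y ξ : ℂ) = (d ξ : ℂ) := by
          have := hrel ξ h
          rw [h6, mul_one] at this
          exact_mod_cast this
        rw [Pi.smul_apply, smul_eq_mul, Complex.ofReal_intCast]
        linear_combination ((d₁ : ℂ) * (y ξ : ℂ)) * hdeg ξ h + ((d ξ : ℂ) * τ₁ ψ 1) * h2
      rw [hY1, ← Finset.sum_mul] at h1
      push_cast
      linear_combination -h1
    have hT0 : τ₁ ψ 1 ≠ 0 := by
      have hn1 : Cfsg.classInner (τ₁ ψ) (τ₁ ψ) = 1 := by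
        rw [hin1 ψ hψ ψ hψ, CfsgLib.CharBasics.classInner_self (hirr ψ hψ)]
      rcases CfsgLib.Exceptional.norm_one_cases (hg1 ψ hψ) hn1 with h | h
      · exact CfsgLib.CharBasics.apply_one_ne_zero h
      · exact fun h0 => CfsgLib.CharBasics.apply_one_ne_zero h (by simp [h0])
    have h9 := Int.cast_eq_zero.1 ((mul_eq_zero.1 hz).resolve_right hT0)
    nlinarith
  have hy0 : ∀ ξ ∈ S₀, y ξ = 0 := fun ξ h => by
    have := hrel ξ h
    rw [hb0, mul_zero] at this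
    exact (mul_eq_zero.1 this).resolve_left (by exact_mod_cast hd₁0.ne')
  have hY1' : Cfsg.classInner Y Y = 1 := by rw [hYY, hb0]; simp
  refine CfsgLib.Exceptional.coherent_of horth d hd (Finset.mem_insert_of_mem hψ) hd₁0.ne'
    ⟨χ, Finset.mem_insert_self _ _, fun e => hχS (e ▸ hψ)⟩ τ hτ (fun ξ => if ξ = χ then Y else τ₁ ξ) ?_ ?_ ?_
  · intro ξ hξ
    split_ifs with h
    · exact hYgen
    · exact hg1 ξ ((Finset.mem_insert.1 hξ).resolve_left h)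
  · intro ξ hξ η hη
    split_ifs with h h' h'
    · rw [hY1', h, h', CfsgLib.CharBasics.classInner_self hχ]
    · have hηS := (Finset.mem_insert.1 hη).resolve_left h'
      rw [hy η hηS, hy0 η hηS, h, hχne η hηS, Int.cast_zero]
    · have hξS := (Finset.mem_insert.1 hξ).resolve_left h
      rw [CfsgLib.CharBasics.classInner_comm Y, hy ξ hξS, hy0 ξ hξS, h', CfsgLib.CharBasics.classInner_comm χ,
        hχne ξ hξS, Int.cast_zero]
    · exact hin1 ξ ((Finset.mem_insert.1 hξ).resolve_left h) η ((Finset.mem_insert.1 hη).resolve_left h')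
  · intro ξ hξ hne
    rw [if_neg (fun e : ψ = χ => hχS (e ▸ hψ))]
    split_ifs with h
    · subst h
      have e1 : (d₁ : ℤ) • ξ - (d ξ : ℤ) • ψ = (d₁ : ℤ) • (ξ - (a : ℤ) • ψ) := by
        rw [smul_sub, smul_smul, ha]; push_cast; rfl
      rw [e1, CfsgLib.Exceptional.iso_zsmul hτ' hE, ← hw, hY, ha]
      push_cast
      module
    · exact hτθ ξ ((Finset.mem_insert.1 hξ).resolve_left h)

end CfsgLib.FeitCoh
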