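import Mathlib
import Cfsg.Agent.Exceptional.LinearFamily
import Cfsg.Agent.Clifford.Correspondence
import Cfsg.Agent.S1528
import Cfsg.Agent.ZJ.Fpf
import Cfsg.Agent.PReduced.Hom

/-!
A Frobenius kernel: coprimality, nilpotency, and the characters induced from it.
-/

set_option autoImplicit false

namespace CfsgLib.FeitCoh

open CfsgLib.CharBasics CfsgLib.Exceptional

universe u

variable {X : Type u} [Group X] (K : Subgroup X) [K.Normal]
  (hC : ∀ n ∈ K, n ≠ 1 → Subgroup.centralizer ({n} : Set X) ≤ K)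

include hC in
theorem coprime_index [Finite X] : (Nat.card K).Coprime K.index := by
  refine Nat.coprime_of_dvd fun p hp hpK hpI => ?_
  haveI := Fact.mk hp
  let P : Sylow p X := default
  have hPK : ¬ (P : Subgroup X) ≤ K := fun h => P.not_dvd_index (hpI.trans (Subgroup.index_dvd_of_le h))
  obtain ⟨x, hx⟩ := exists_prime_orderOf_dvd_card' (G := K) p hpK
  rw [← Subgroup.orderOf_coe] at hx
  obtain ⟨Q, hQ⟩ := (IsPGroup.of_card (n := 1) (by rw [Nat.card_zpowers, hx, pow_one]) :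
    IsPGroup p (Subgroup.zpowers (x : X))).exists_le_sylow
  obtain ⟨g, hg⟩ := MulAction.exists_smul_eq X Q P
  set y := g * (x : X) * g⁻¹ with hy
  have hyK : y ∈ K := (inferInstance : K.Normal).conj_mem _ x.2 g
  have hyP : y ∈ (P : Subgroup X) := by
    rw [← hg, Sylow.coe_subgroup_smul]
    exact ⟨x, hQ (Subgroup.mem_zpowers _), rfl⟩
  have hy1 : y ≠ 1 := fun h => by
    rw [conj_eq_one_iff.1 (hy.symm.trans h : g * (x : X) * g⁻¹ = 1), orderOf_one] at hx
    exact hp.one_lt.ne hx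
  haveI : Group.IsNilpotent (P : Subgroup X) := P.2.isNilpotent
  -- a central element of `P` lying in `K`
  have hne : K.subgroupOf P ≠ ⊥ := fun h => hy1 (congrArg Subtype.val
    ((Subgroup.eq_bot_iff_forall _).1 h ⟨y, hyP⟩ (Subgroup.mem_subgroupOf.2 hyK)))
  haveI : Nontrivial (K.subgroupOf P) := (Subgroup.nontrivial_iff_ne_bot _).2 hne
  have h := CfsgLib.PReduced.inf_center_ne_bot P.2 hne
  obtain ⟨⟨z, hz⟩, hz1⟩ := Subgroup.ne_bot_iff_exists_ne_one.1 h
  obtain ⟨hzK, hzC⟩ := hz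
  apply hPK
  intro w hw
  refine hC _ (Subgroup.mem_subgroupOf.1 hzK) (fun e => hz1 (Subtype.ext (Subtype.ext e))) ?_
  rw [Subgroup.mem_centralizer_singleton_iff]
  exact congrArg Subtype.val (Subgroup.mem_center_iff.1 hzC ⟨w, hw⟩)

include hC in
theorem isNilpotent_kernel [Finite X] (hK : K ≠ ⊤) : Group.IsNilpotent K := by
  have h1 : K.index ≠ 1 := fun h => hK (Subgroup.index_eq_one.1 h)
  obtain ⟨p, hp, hpI⟩ := Nat.exists_prime_and_dvd h1
  haveI := Fact.mk hp
  have hpX : p ∣ Nat.card X := hpI.trans (Subgroup.index_dvd_card K)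
  obtain ⟨x, hx⟩ := exists_prime_orderOf_dvd_card' (G := X) p hpX
  have hxK : x ∉ K := fun h => by
    have h2 := Subgroup.orderOf_dvd_natCard K h
    rw [hx] at h2
    exact hp.one_lt.ne' (Nat.eq_one_of_dvd_coprimes (coprime_index K hC) h2 hpI)
  refine CfsgLib.ZJ.isNilpotent_of_fixedPointFree (α := MulAut.conjNormal x) hp (fun v hv => ?_) ?_
  · by_contra hv1
    apply hxK
    refine hC v v.2 (fun e => hv1 (Subtype.ext e)) ?_
    rw [Subgroup.mem_centralizer_singleton_iff]
    have h0 := congrArg Subtype.val hv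
    rw [MulAut.conjNormal_apply] at h0
    exact mul_inv_eq_iff_eq_mul.1 h0
  · rw [← map_pow, ← hx, pow_orderOf_eq_one]
    exact map_one _

variable [Fintype X]

include hC in
/-- Non-principal characters of the kernel induce irreducibly. -/
theorem induced_irr [Fintype K] {θ : K → ℂ} (hθ : Cfsg.IsIrrCharacter K θ) (h1 : θ ≠ fun _ => 1) :
    Cfsg.IsIrrCharacter X (Cfsg.indFun K θ) ∧ Rel K (Cfsg.indFun K θ) := by
  have h := CfsgLib.Clifford.indFun_inertia_irr hθ K (Cfsg.Agent.S1528.inertia_eq K hC hθ h1) le_rfl hθ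
    (by show Cfsg.classInner θ θ ≠ 0; rw [classInner_self hθ]; exact one_ne_zero)
  refine ⟨h.1, ?_⟩
  by_contra hnr
  have h2 : Cfsg.classInner (fun n : K => Cfsg.indFun K θ n) θ = 1 := h.2.trans (classInner_self hθ)
  have hconst : (fun k : K => Cfsg.indFun K θ k) = Cfsg.indFun K θ 1 • (fun _ : K => (1 : ℂ)) := by
    funext k; simp [not_rel hnr k.2]
  rw [hconst, classInner_smul_left, classInner_ne isIrrCharacter_one hθ h1.symm, mul_zero] at h2
  exact zero_ne_one h2

/-- The degree of a character induced from `K`, divided by the index. -/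
noncomputable def pdeg (χ : X → ℂ) : ℕ := Cfsg.charDegree χ / K.index

include hC in
theorem pdeg_spec {χ : X → ℂ} (hχ : Cfsg.IsIrrCharacter X χ) (hr : Rel K χ) :
    0 < pdeg K χ ∧ pdeg K χ ∣ Nat.card K ∧ χ 1 = ((K.index * pdeg K χ : ℕ) : ℂ) ∧
      Cfsg.charDegree χ = K.index * pdeg K χ := by
  obtain ⟨-, p, hp0, hpd, hp, -⟩ := rel_induced K hC hχ hr
  have h1 : Cfsg.charDegree χ = K.index * p := by
    rw [apply_one (isCharacter_of_irr hχ)] at hp
    exact_mod_cast hp
  have h2 : pdeg K χ = p := by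
    rw [pdeg, h1, Nat.mul_div_cancel_left _ (Nat.pos_of_ne_zero Subgroup.index_ne_zero_of_finite)]
  rw [h2]
  exact ⟨hp0, hpd, hp, h1⟩

include hC in
theorem pdeg_induced [Fintype K] {θ : K → ℂ} (hθ : Cfsg.IsIrrCharacter K θ) (h1 : θ ≠ fun _ => 1) :
    pdeg K (Cfsg.indFun K θ) = Cfsg.charDegree θ := by
  obtain ⟨hi, hr⟩ := induced_irr K hC hθ h1
  have h := (pdeg_spec K hC hi hr).2.2.1
  rw [indFun_apply_one, apply_one (isCharacter_of_irr hθ)] at h
  have : K.index * Cfsg.charDegree θ = K.index * pdeg K (Cfsg.indFun K θ) := by exact_mod_cast h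
  exact (Nat.eq_of_mul_eq_mul_left (Nat.pos_of_ne_zero Subgroup.index_ne_zero_of_finite) this).symm

include hC in
/-- Each relevant character is induced from exactly `e` characters of the kernel. -/
theorem card_fibre [Fintype K] [Fintype (Cfsg.IrrCharacter K)]
    [DecidableEq (Cfsg.IrrCharacter K)] [DecidableEq (X → ℂ)] (χ : X → ℂ) (hχ : Cfsg.IsIrrCharacter X χ)
    (hr : Rel K χ) :
    ((Finset.univ.erase (oneChar : Cfsg.IrrCharacter K)).filter
      fun θ : Cfsg.IrrCharacter K => Cfsg.indFun K (θ : K → ℂ) = χ).card = K.index := by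
  have hres := classFun_expand (G := K) (f := fun k : K => χ k)
    (isClassFunction (isCharacter_restrict (isCharacter_of_irr hχ) K))
  have hcoef : ∀ θ : Cfsg.IrrCharacter K, Cfsg.classInner (fun k : K => χ k) (θ : K → ℂ) =
      if θ ≠ oneChar ∧ Cfsg.indFun K (θ : K → ℂ) = χ then 1 else 0 := by
    intro θ
    by_cases h1 : θ = oneChar
    · subst h1
      rw [if_neg (fun h => h.1 rfl), classInner_eq, Finset.sum_congr rfl (fun (k : K) _ => ?_)]
      · rw [rel_sum_eq_zero K hC hχ hr, mul_zero]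
      · show χ (k : X) * (starRingEnd ℂ) 1 = χ (k : X)
        rw [map_one, mul_one]
    · have h1' : (θ : K → ℂ) ≠ fun _ => 1 := fun h => h1 (Subtype.ext h)
      obtain ⟨hi, -⟩ := induced_irr K hC θ.2 h1'
      rw [classInner_comm (θ : K → ℂ) (fun k : K => χ k), ← classInner_indFun K _ (isClassFunction (isCharacter_of_irr hχ))]
      by_cases he : Cfsg.indFun K (θ : K → ℂ) = χ
      · rw [if_pos ⟨h1, he⟩, he, classInner_self hχ, map_one]
      · rw [if_neg (fun h => he h.2), classInner_ne hi hχ he, map_zero]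
  have h := congrFun hres 1
  simp only [Finset.sum_apply, Pi.smul_apply, smul_eq_mul, hcoef, Subgroup.coe_one] at h
  simp only [ite_mul, one_mul, zero_mul, ← Finset.sum_filter] at h
  obtain ⟨hp0, -, hp1, -⟩ := pdeg_spec K hC hχ hr
  have hF : ((Finset.univ.erase (oneChar : Cfsg.IrrCharacter K)).filter fun θ : Cfsg.IrrCharacter K => Cfsg.indFun K (θ : K → ℂ) = χ) =
      Finset.univ.filter fun θ : Cfsg.IrrCharacter K => θ ≠ oneChar ∧ Cfsg.indFun K (θ : K → ℂ) = χ := by
    ext θ; simp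
  rw [Finset.sum_congr rfl (fun (θ : Cfsg.IrrCharacter K) hθ => (?_ : (θ : K → ℂ) 1 = (pdeg K χ : ℂ))), Finset.sum_const,
    nsmul_eq_mul, ← hF, hp1] at h
  · have h' : K.index * pdeg K χ = ((Finset.univ.erase (oneChar : Cfsg.IrrCharacter K)).filter
        fun θ : Cfsg.IrrCharacter K => Cfsg.indFun K (θ : K → ℂ) = χ).card * pdeg K χ := by exact_mod_cast h
    exact (Nat.eq_of_mul_eq_mul_right hp0 h').symm
  · simp only [Finset.mem_filter, Finset.mem_univ, true_and] at hθ
    rw [← hθ.2, pdeg_induced K hC θ.2 (fun h => hθ.1 (Subtype.ext h)), apply_one (isCharacter_of_irr θ.2)]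

include hC in
/-- Degree sums of relevant characters through the kernel. -/
theorem sum_pdeg_sq [Fintype K] [Fintype (Cfsg.IrrCharacter K)] [Fintype (Cfsg.IrrCharacter X)]
    [DecidableEq (Cfsg.IrrCharacter K)] [DecidablePred fun χ : Cfsg.IrrCharacter X => Rel K (χ : X → ℂ)]
    (P : ℕ → Prop) [DecidablePred P] :
    K.index * ∑ χ ∈ Finset.univ.filter (fun χ : Cfsg.IrrCharacter X => Rel K (χ : X → ℂ)),
        (if P (pdeg K (χ : X → ℂ)) then pdeg K (χ : X → ℂ) ^ 2 else 0) =
      ∑ θ ∈ Finset.univ.erase (oneChar : Cfsg.IrrCharacter K),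
        (if P (Cfsg.charDegree (θ : K → ℂ)) then Cfsg.charDegree (θ : K → ℂ) ^ 2 else 0) := by
  classical
  rw [Finset.mul_sum]
  let f : Cfsg.IrrCharacter K → Cfsg.IrrCharacter X := fun θ =>
    if h : (θ : K → ℂ) = fun _ => 1 then oneChar else ⟨_, (induced_irr K hC θ.2 h).1⟩
  have hne : ∀ θ ∈ Finset.univ.erase (oneChar : Cfsg.IrrCharacter K), (θ : K → ℂ) ≠ fun _ => 1 := fun θ hθ h =>
    Finset.ne_of_mem_erase hθ (Subtype.ext h)
  have hmaps : ∀ θ ∈ Finset.univ.erase (oneChar : Cfsg.IrrCharacter K),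
      f θ ∈ Finset.univ.filter (fun χ : Cfsg.IrrCharacter X => Rel K (χ : X → ℂ)) := fun θ hθ => by
    simp only [f, dif_neg (hne θ hθ), Finset.mem_filter, Finset.mem_univ, true_and]
    exact (induced_irr K hC θ.2 (hne θ hθ)).2
  rw [← Finset.sum_fiberwise_of_maps_to hmaps]
  refine Finset.sum_congr rfl fun χ hχ => ?_
  have hfib : (Finset.univ.erase (oneChar : Cfsg.IrrCharacter K)).filter (fun θ => f θ = χ) =
      (Finset.univ.erase (oneChar : Cfsg.IrrCharacter K)).filter fun θ : Cfsg.IrrCharacter K => Cfsg.indFun K (θ : K → ℂ) = (χ : X → ℂ) := by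
    refine Finset.filter_congr fun θ hθ => ?_
    simp only [f, dif_neg (hne θ hθ), Subtype.ext_iff]
  rw [hfib]
  trans ∑ θ ∈ (Finset.univ.erase (oneChar : Cfsg.IrrCharacter K)).filter
      (fun θ : Cfsg.IrrCharacter K => Cfsg.indFun K (θ : K → ℂ) = (χ : X → ℂ)),
      (if P (pdeg K (χ : X → ℂ)) then pdeg K (χ : X → ℂ) ^ 2 else 0)
  · rw [Finset.sum_const, card_fibre K hC _ χ.2 (Finset.mem_filter.1 hχ).2, smul_eq_mul]
  · refine Finset.sum_congr rfl fun θ hθ => ?_
    obtain ⟨hθ1, hθ2⟩ := Finset.mem_filter.1 hθ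
    rw [← hθ2, pdeg_induced K hC θ.2 (hne θ hθ1)]

end CfsgLib.FeitCoh
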