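import Mathlib
import Cfsg.Agent.FeitCoh.Kernel
import Cfsg.Agent.Clifford.Basic
import Cfsg.Agent.S0188
import Cfsg.Agent.Hall.DPiDirect

/-!
Degree bounds for a Frobenius kernel that is a product of groups of coprime order.
-/

set_option autoImplicit false

namespace CfsgLib.FeitCoh

open CfsgLib.CharBasics CfsgLib.Exceptional

universe u v w

variable {K : Type u} [Group K] [Finite K] {A : Type v} [Group A] [Finite A] {B : Type w} [Group B] [Finite B]

/-- The product character transported to `K`. -/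
def prodChar (e : K ≃* A × B) (α : A → ℂ) (β : B → ℂ) : K → ℂ := fun k => α (e k).1 * β (e k).2

theorem isIrr_prodChar (e : K ≃* A × B) {α : A → ℂ} {β : B → ℂ} (hα : Cfsg.IsIrrCharacter A α)
    (hβ : Cfsg.IsIrrCharacter B β) : Cfsg.IsIrrCharacter K (prodChar e α β) := by
  haveI := Fintype.ofFinite A
  haveI := Fintype.ofFinite B
  haveI := Fintype.ofFinite K
  have hp : Cfsg.IsIrrCharacter (A × B) (fun x => α x.1 * β x.2) :=
    (Cfsg.Agent.S0188.result _).2 ⟨α, β, hα, hβ, rfl⟩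
  refine isIrr_of_norm_one (isCharacter_comp (isCharacter_of_irr hp) e.toMonoidHom) ?_
  rw [← classInner_self hp]
  simp only [classInner_eq, Nat.card_congr e.toEquiv]
  congr 1
  exact Fintype.sum_equiv e.toEquiv _ _ fun k => rfl

theorem charDegree_prodChar (e : K ≃* A × B) {α : A → ℂ} {β : B → ℂ} (hα : Cfsg.IsIrrCharacter A α)
    (hβ : Cfsg.IsIrrCharacter B β) :
    Cfsg.charDegree (prodChar e α β) = Cfsg.charDegree α * Cfsg.charDegree β := by
  have h := apply_one (isCharacter_of_irr (isIrr_prodChar e hα hβ))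
  rw [prodChar, map_one, Prod.fst_one, Prod.snd_one, apply_one (isCharacter_of_irr hα),
    apply_one (isCharacter_of_irr hβ)] at h
  exact_mod_cast h.symm

theorem exists_prodChar (e : K ≃* A × B) {θ : K → ℂ} (hθ : Cfsg.IsIrrCharacter K θ) :
    ∃ (α : A → ℂ) (β : B → ℂ), Cfsg.IsIrrCharacter A α ∧ Cfsg.IsIrrCharacter B β ∧ θ = prodChar e α β := by
  haveI := Fintype.ofFinite A
  haveI := Fintype.ofFinite B
  haveI := Fintype.ofFinite K
  have hirr : Cfsg.IsIrrCharacter (A × B) (fun x => θ (e.symm x)) := by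
    refine isIrr_of_norm_one (isCharacter_comp (isCharacter_of_irr hθ) e.symm.toMonoidHom) ?_
    rw [← classInner_self hθ]
    simp only [classInner_eq, Nat.card_congr e.toEquiv]
    congr 1
    exact Fintype.sum_equiv e.symm.toEquiv _ _ fun k => rfl
  obtain ⟨α, β, hα, hβ, he⟩ := (Cfsg.Agent.S0188.result _).1 hirr
  exact ⟨α, β, hα, hβ, funext fun k => by simpa [prodChar] using congrFun he (e k)⟩

/-- Pairs of characters give characters of the product. -/
theorem sum_mul_le [Fintype (Cfsg.IrrCharacter K)] (e : K ≃* A × B)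
    (SA : Finset (Cfsg.IrrCharacter A)) (SB : Finset (Cfsg.IrrCharacter B)) (Q : ℕ → Prop) [DecidablePred Q]
    (hQ : ∀ α ∈ SA, ∀ β ∈ SB, Q (Cfsg.charDegree (α : A → ℂ) * Cfsg.charDegree (β : B → ℂ))) :
    (∑ α ∈ SA, Cfsg.charDegree (α : A → ℂ) ^ 2) * (∑ β ∈ SB, Cfsg.charDegree (β : B → ℂ) ^ 2) ≤
      ∑ θ : Cfsg.IrrCharacter K, (if Q (Cfsg.charDegree (θ : K → ℂ)) then Cfsg.charDegree (θ : K → ℂ) ^ 2 else 0) := by
  classical
  let g : Cfsg.IrrCharacter A × Cfsg.IrrCharacter B → Cfsg.IrrCharacter K :=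
    fun q => ⟨_, isIrr_prodChar e q.1.2 q.2.2⟩
  have hg : Function.Injective g := by
    rintro ⟨α, β⟩ ⟨α', β'⟩ h
    have h' : ∀ x y, (α : A → ℂ) x * (β : B → ℂ) y = (α' : A → ℂ) x * (β' : B → ℂ) y := fun x y => by
      simpa [g, prodChar] using congrFun (congrArg Subtype.val h) (e.symm (x, y))
    have hβ' := h' 1
    have hd : ∀ x, (α : A → ℂ) x = ((β' : B → ℂ) 1 / (β : B → ℂ) 1) * (α' : A → ℂ) x := fun x => by
      have := apply_one_ne_zero β.2
      field_simp
      linear_combination h' x 1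
    haveI := Fintype.ofFinite A
    have hα : α = α' := by
      by_contra hne
      have h1 := classInner_self α.2
      nth_rewrite 1 [show (α : A → ℂ) = ((β' : B → ℂ) 1 / (β : B → ℂ) 1) • (α' : A → ℂ) from funext hd] at h1
      rw [classInner_smul_left, classInner_ne α'.2 α.2 (fun e => hne (Subtype.ext e.symm)), mul_zero] at h1
      exact zero_ne_one h1
    subst hα
    exact Prod.ext rfl (Subtype.ext (funext fun y => mul_left_cancel₀ (apply_one_ne_zero α.2) (h' 1 y)))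
  rw [Finset.sum_mul_sum, ← Finset.sum_product']
  refine le_trans (le_of_eq ?_) (Finset.sum_le_sum_of_subset (Finset.subset_univ ((SA ×ˢ SB).image g)))
  rw [Finset.sum_image fun a _ b _ h => hg h]
  refine Finset.sum_congr rfl fun q hq => ?_
  obtain ⟨h1, h2⟩ := Finset.mem_product.1 hq
  simp only [g, charDegree_prodChar e q.1.2 q.2.2]
  rw [if_pos (hQ _ h1 _ h2), mul_pow]

variable {X : Type u} [Group X] [Fintype X] (K₀ : Subgroup X) [K₀.Normal]
  (hC : ∀ n ∈ K₀, n ≠ 1 → Subgroup.centralizer ({n} : Set X) ≤ K₀)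

include hC in
/-- The characters of one factor of degree at most `r` weigh at least `1 + e r²`. -/
theorem factor_bound [Fintype (Cfsg.IrrCharacter B)] (e : K₀ ≃* A × B)
    (hcop : (Nat.card A).Coprime (Nat.card B)) (β₀ : Cfsg.IrrCharacter B) (hβ₀ : (β₀ : B → ℂ) ≠ fun _ => 1) :
    1 + K₀.index * Cfsg.charDegree (β₀ : B → ℂ) ^ 2 ≤
      ∑ β ∈ Finset.univ.filter (fun β : Cfsg.IrrCharacter B =>
        Cfsg.charDegree (β : B → ℂ) ≤ Cfsg.charDegree (β₀ : B → ℂ)), Cfsg.charDegree (β : B → ℂ) ^ 2 := by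
  classical
  haveI := Fintype.ofFinite K₀
  haveI := Fintype.ofFinite A
  haveI : Fintype (Cfsg.IrrCharacter K₀) := Fintype.ofFinite _
  set r := Cfsg.charDegree (β₀ : B → ℂ) with hr
  set θ₀ : Cfsg.IrrCharacter K₀ := ⟨_, isIrr_prodChar e (isIrrCharacter_one (G := A)) β₀.2⟩ with hθ₀
  have hθ1 : (θ₀ : K₀ → ℂ) ≠ fun _ => 1 := fun h => hβ₀ (funext fun b => by
    simpa [hθ₀, prodChar] using congrFun h (e.symm (1, b)))
  obtain ⟨hi, hrel⟩ := induced_irr K₀ hC θ₀.2 hθ1
  set F := (Finset.univ.erase (oneChar : Cfsg.IrrCharacter K₀)).filter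
    fun θ : Cfsg.IrrCharacter K₀ => Cfsg.indFun K₀ (θ : K₀ → ℂ) = Cfsg.indFun K₀ (θ₀ : K₀ → ℂ) with hF
  have hFcard : F.card = K₀.index := card_fibre K₀ hC _ hi hrel
  have hkey : ∀ θ ∈ F, ∃ β : Cfsg.IrrCharacter B, Cfsg.charDegree (β : B → ℂ) = r ∧
      (β : B → ℂ) ≠ (fun _ => 1) ∧ (θ : K₀ → ℂ) = prodChar e (fun _ => 1) β := by
    intro θ hθ
    obtain ⟨hθne, hθeq⟩ := Finset.mem_filter.1 hθ
    have hne : (θ : K₀ → ℂ) ≠ fun _ => 1 := fun h => Finset.ne_of_mem_erase hθne (Subtype.ext h)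
    have hcons : ∀ φ : Cfsg.IrrCharacter K₀, (φ : K₀ → ℂ) ≠ (fun _ => 1) →
        Cfsg.indFun K₀ (φ : K₀ → ℂ) = Cfsg.indFun K₀ (θ₀ : K₀ → ℂ) →
        Cfsg.classInner (fun n : K₀ => Cfsg.indFun K₀ (θ₀ : K₀ → ℂ) n) (φ : K₀ → ℂ) ≠ 0 := by
      intro φ hφ1 hφ
      have h := CfsgLib.Clifford.indFun_inertia_irr φ.2 K₀ (Cfsg.Agent.S1528.inertia_eq K₀ hC φ.2 hφ1) le_rfl φ.2
        (by show Cfsg.classInner (φ : K₀ → ℂ) φ ≠ 0; rw [classInner_self φ.2]; exact one_ne_zero)
      rw [← hφ, h.2, classInner_self φ.2]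
      exact one_ne_zero
    obtain ⟨g, hg⟩ := CfsgLib.Clifford.constituent_conj hi θ₀.2 θ.2 (hcons θ₀ hθ1 rfl) (hcons θ hne hθeq)
    obtain ⟨α, β, hα, hβ, he⟩ := exists_prodChar e θ.2
    have hA : ∀ x : A, α x = α 1 := by
      intro x
      have h1 : (θ : K₀ → ℂ) (e.symm (x, 1)) = (θ : K₀ → ℂ) 1 := by
        rw [hg]
        show (θ₀ : K₀ → ℂ) ((MulAut.conjNormal g : MulAut K₀) (e.symm (x, 1))) =
          (θ₀ : K₀ → ℂ) ((MulAut.conjNormal g : MulAut K₀) 1)
        set k := (MulAut.conjNormal g : MulAut K₀) (e.symm (x, 1)) with hk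
        have hk2 : (e k).2 = 1 := by
          rw [← orderOf_eq_one_iff]
          refine Nat.eq_one_of_dvd_coprimes hcop ?_ (orderOf_dvd_natCard _)
          refine (orderOf_map_dvd (MonoidHom.snd A B) (e k)).trans ?_
          rw [MulEquiv.orderOf_eq, hk, MulEquiv.orderOf_eq, MulEquiv.orderOf_eq, Prod.orderOf_mk, orderOf_one,
            Nat.lcm_one_right]
          exact orderOf_dvd_natCard x
        have hk1 : ((MulAut.conjNormal g : MulAut K₀) 1 : K₀) = 1 := map_one _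
        simp only [hθ₀, prodChar, hk1, map_one, Prod.snd_one]
        rw [hk2]
      have h2 : α x * β 1 = α 1 * β 1 := by simpa [he, prodChar] using h1
      exact mul_right_cancel₀ (apply_one_ne_zero hβ) h2
    have hα1 : α = fun _ => 1 := by
      by_contra hne'
      have hconst : α = α 1 • (fun _ : A => (1 : ℂ)) := funext fun x => by simp [hA x]
      have h3 := classInner_self hα
      nth_rewrite 1 [hconst] at h3
      rw [classInner_smul_left, classInner_ne isIrrCharacter_one hα (Ne.symm hne'), mul_zero] at h3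
      exact zero_ne_one h3
    subst hα1
    refine ⟨⟨β, hβ⟩, ?_, fun h => hne ?_, he⟩
    · have hd : Cfsg.charDegree (θ : K₀ → ℂ) = Cfsg.charDegree (θ₀ : K₀ → ℂ) := by
        rw [← pdeg_induced K₀ hC θ.2 hne, hθeq, pdeg_induced K₀ hC θ₀.2 hθ1]
      rw [he, charDegree_prodChar e (isIrrCharacter_one (G := A)) hβ, hθ₀,
        charDegree_prodChar e (isIrrCharacter_one (G := A)) β₀.2] at hd
      have h1 : Cfsg.charDegree (fun _ : A => (1 : ℂ)) = 1 := by
        have := apply_one (isCharacter_of_irr (isIrrCharacter_one (G := A)))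
        exact_mod_cast this.symm
      rwa [h1, one_mul, one_mul] at hd
    · rw [he]; funext k; simp only [prodChar, one_mul]; exact congrFun h _
  haveI : Nonempty (Cfsg.IrrCharacter B) := ⟨β₀⟩
  choose! β hβd hβ1 hβe using hkey
  have hinj : Set.InjOn β ↑F := fun θ hθ θ' hθ' h =>
    Subtype.ext ((hβe θ hθ).trans ((congrArg (fun b : Cfsg.IrrCharacter B => prodChar e (fun _ => 1) (b : B → ℂ)) h).trans
      (hβe θ' hθ').symm))
  have hnot : (oneChar : Cfsg.IrrCharacter B) ∉ F.image β := fun h => by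
    obtain ⟨θ, hθ, he⟩ := Finset.mem_image.1 h
    exact hβ1 θ hθ (congrArg Subtype.val he)
  have hone : Cfsg.charDegree ((oneChar : Cfsg.IrrCharacter B) : B → ℂ) = 1 := by
    have := apply_one (isCharacter_of_irr (oneChar : Cfsg.IrrCharacter B).2)
    have h1 : ((oneChar : Cfsg.IrrCharacter B) : B → ℂ) 1 = 1 := rfl
    rw [h1] at this
    exact_mod_cast this.symm
  calc 1 + K₀.index * r ^ 2 = ∑ b ∈ insert (oneChar : Cfsg.IrrCharacter B) (F.image β), Cfsg.charDegree (b : B → ℂ) ^ 2 := by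
        rw [Finset.sum_insert hnot, hone, one_pow, Finset.sum_image hinj,
          Finset.sum_congr rfl (g := fun _ => r ^ 2) (fun θ hθ => by rw [hβd θ hθ]), Finset.sum_const, hFcard, smul_eq_mul]
    _ ≤ _ := by
        refine Finset.sum_le_sum_of_subset fun b hb => Finset.mem_filter.2 ⟨Finset.mem_univ _, ?_⟩
        rcases Finset.mem_insert.1 hb with rfl | hb
        · rw [hone]; exact charDegree_pos β₀.2
        · obtain ⟨θ, hθ, rfl⟩ := Finset.mem_image.1 hb
          exact (hβd θ hθ).le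

omit [Group A] [Finite A] in
theorem exists_linear_ne_one (B : Type w) [Group B] [Finite B] [Nontrivial B] [Group.IsNilpotent B] :
    ∃ β : Cfsg.IrrCharacter B, (β : B → ℂ) ≠ (fun _ => 1) ∧ Cfsg.charDegree (β : B → ℂ) = 1 := by
  obtain ⟨l, hl⟩ : ∃ l : B →* ℂˣ, l ≠ 1 := by
    by_contra h
    push Not at h
    haveI : Subsingleton (B →* ℂˣ) := ⟨fun l l' => (h l).trans (h l').symm⟩
    have h1 := card_hom_units B
    rw [Nat.card_of_subsingleton (1 : B →* ℂˣ)] at h1
    have hab : Nontrivial (Abelianization B) :=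
      QuotientGroup.nontrivial_iff.2 (Group.IsSolvable.commutator_lt_top_of_nontrivial B).ne
    have := Finite.one_lt_card (α := Abelianization B)
    omega
  refine ⟨⟨_, isIrr_of_hom l⟩, fun h => hl (MonoidHom.ext fun b => Units.ext (congrFun h b)), ?_⟩
  have := apply_one (isCharacter_of_irr (isIrr_of_hom l))
  rw [map_one, Units.val_one] at this
  exact_mod_cast this.symm

theorem exists_split_nilpotent (K : Type u) [Group K] [Finite K] [Group.IsNilpotent K] (p : ℕ) [Fact p.Prime] :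
    ∃ (P : Sylow p K) (R : Subgroup K), Nonempty (K ≃* ↥(P : Subgroup K) × ↥R) ∧
      (Nat.card (P : Subgroup K)).Coprime (Nat.card R) ∧ ¬ p ∣ Nat.card R := by
  obtain ⟨S, N, hN, hNS⟩ := CfsgLib.ZJ.hasNormalPComplement_of_isNilpotent (G := K) p
  haveI := hN
  haveI hSn : (S : Subgroup K).Normal := CfsgLib.Hall.NormComplement.sylow_normal_of_nilpotent inferInstance p S
  have hcomm : ∀ (a : (S : Subgroup K)) (b : N), Commute ((S : Subgroup K).subtype a) (N.subtype b) := fun a b =>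
    Subgroup.commute_of_normal_of_disjoint _ _ hSn hN hNS.disjoint.symm a b a.2 b.2
  let f : ↥(S : Subgroup K) × ↥N →* K := MonoidHom.noncommCoprod (S : Subgroup K).subtype N.subtype hcomm
  have hbij : Function.Bijective f := hNS.symm
  have hndvd : ¬ p ∣ Nat.card N := by
    rw [← hNS.index_eq_card]
    exact S.not_dvd_index
  refine ⟨S, N, ⟨(MulEquiv.ofBijective f hbij).symm⟩, ?_, hndvd⟩
  obtain ⟨j, hj⟩ := S.2.exists_card_eq
  rw [hj]
  exact Nat.Coprime.pow_left j ((Nat.Prime.coprime_iff_not_dvd Fact.out).2 hndvd)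

/-- In a `p`-group the characters of smaller degree weigh a positive multiple of `a²`. -/
theorem pgroup_bound [Fintype (Cfsg.IrrCharacter A)] {p : ℕ} [Fact p.Prime] (hA : IsPGroup p A)
    (α₀ : Cfsg.IrrCharacter A) (ha : 1 < Cfsg.charDegree (α₀ : A → ℂ)) :
    Cfsg.charDegree (α₀ : A → ℂ) ^ 2 ≤ ∑ α ∈ Finset.univ.filter (fun α : Cfsg.IrrCharacter A =>
      Cfsg.charDegree (α : A → ℂ) < Cfsg.charDegree (α₀ : A → ℂ)), Cfsg.charDegree (α : A → ℂ) ^ 2 := by
  classical
  haveI := Fintype.ofFinite A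
  set a := Cfsg.charDegree (α₀ : A → ℂ)
  obtain ⟨n, hn⟩ := hA.exists_card_eq
  have hp : p.Prime := Fact.out
  have hdeg : ∀ α : Cfsg.IrrCharacter A, ∃ i, i ≤ n ∧ Cfsg.charDegree (α : A → ℂ) = p ^ i := fun α =>
    (Nat.dvd_prime_pow hp).1 (hn ▸ degree_dvd α)
  have hsum := sum_sq_degree (G := A)
  obtain ⟨k, -, hk⟩ := hdeg α₀
  have hsplit := Finset.sum_filter_add_sum_filter_not Finset.univ
    (fun α : Cfsg.IrrCharacter A => Cfsg.charDegree (α : A → ℂ) < a) (fun α => Cfsg.charDegree (α : A → ℂ) ^ 2)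
  rw [hsum] at hsplit
  have hbig : a ^ 2 ∣ ∑ α ∈ Finset.univ.filter (fun α : Cfsg.IrrCharacter A => ¬ Cfsg.charDegree (α : A → ℂ) < a),
      Cfsg.charDegree (α : A → ℂ) ^ 2 := by
    refine Finset.dvd_sum fun α hα => pow_dvd_pow_of_dvd ?_ 2
    obtain ⟨i, -, hi⟩ := hdeg α
    have h1 := not_lt.1 (Finset.mem_filter.1 hα).2
    rw [show a = p ^ k from hk, hi] at h1 ⊢
    exact pow_dvd_pow p ((Nat.pow_le_pow_iff_right hp.one_lt).1 h1)
  have hmem : α₀ ∈ Finset.univ.filter (fun α : Cfsg.IrrCharacter A => ¬ Cfsg.charDegree (α : A → ℂ) < a) :=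
    Finset.mem_filter.2 ⟨Finset.mem_univ _, lt_irrefl _⟩
  have hle : a ^ 2 ≤ Nat.card A := by
    rw [← hsplit]
    exact le_trans (Finset.single_le_sum (f := fun α : Cfsg.IrrCharacter A => Cfsg.charDegree (α : A → ℂ) ^ 2)
      (fun _ _ => Nat.zero_le _) hmem) (Nat.le_add_left _ _)
  have hdA : a ^ 2 ∣ Nat.card A := by
    rw [show a = p ^ k from hk, ← pow_mul, hn] at hle ⊢
    exact pow_dvd_pow p ((Nat.pow_le_pow_iff_right hp.one_lt).1 hle)
  rw [← hsplit] at hdA
  refine Nat.le_of_dvd ?_ ((Nat.dvd_add_left hbig).1 hdA)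
  refine Finset.sum_pos' (fun _ _ => Nat.zero_le _) ⟨oneChar, Finset.mem_filter.2 ⟨Finset.mem_univ _, ?_⟩, ?_⟩
  · have h1 : Cfsg.charDegree ((oneChar : Cfsg.IrrCharacter A) : A → ℂ) = 1 := by
      have := apply_one (isCharacter_of_irr (oneChar : Cfsg.IrrCharacter A).2)
      have h1 : ((oneChar : Cfsg.IrrCharacter A) : A → ℂ) 1 = 1 := rfl
      rw [h1] at this
      exact_mod_cast this.symm
    omega
  · exact pow_pos (charDegree_pos (oneChar : Cfsg.IrrCharacter A).2) 2

end CfsgLib.FeitCoh
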