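import Mathlib
import Cfsg.Agent.FeitCoh.Criterion
import Cfsg.Agent.FeitCoh.Product

/-!
Feit's coherence theorem for the characters not trivial on a Frobenius kernel.
-/

set_option autoImplicit false

namespace CfsgLib.FeitCoh

open CfsgLib.CharBasics CfsgLib.Exceptional

universe u v

section Bounds

variable {X : Type u} [Group X] [Fintype X] (K : Subgroup X) [K.Normal]
  (hC : ∀ n ∈ K, n ≠ 1 → Subgroup.centralizer ({n} : Set X) ≤ K)

omit [K.Normal] in
theorem charDegree_one_char : Cfsg.charDegree ((oneChar : Cfsg.IrrCharacter K) : K → ℂ) = 1 := by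
  haveI := Fintype.ofFinite K
  have := apply_one (isCharacter_of_irr (oneChar : Cfsg.IrrCharacter K).2)
  have h1 : ((oneChar : Cfsg.IrrCharacter K) : K → ℂ) 1 = 1 := rfl
  rw [h1] at this
  exact_mod_cast this.symm

omit [K.Normal] in
theorem sum_erase_add [Fintype (Cfsg.IrrCharacter K)] [DecidableEq (Cfsg.IrrCharacter K)] (Q : ℕ → Prop)
    [DecidablePred Q] (h1 : Q 1) :
    1 + ∑ θ ∈ Finset.univ.erase (oneChar : Cfsg.IrrCharacter K),
      (if Q (Cfsg.charDegree (θ : K → ℂ)) then Cfsg.charDegree (θ : K → ℂ) ^ 2 else 0) =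
    ∑ θ : Cfsg.IrrCharacter K, (if Q (Cfsg.charDegree (θ : K → ℂ)) then Cfsg.charDegree (θ : K → ℂ) ^ 2 else 0) := by
  rw [← Finset.add_sum_erase _ _ (Finset.mem_univ (oneChar : Cfsg.IrrCharacter K)), charDegree_one_char, if_pos h1,
    one_pow]

omit [K.Normal] in
theorem card_ab_le [Fintype (Cfsg.IrrCharacter K)] (Q : ℕ → Prop) [DecidablePred Q] (h1 : Q 1) :
    Nat.card (Abelianization K) ≤
      ∑ θ : Cfsg.IrrCharacter K, (if Q (Cfsg.charDegree (θ : K → ℂ)) then Cfsg.charDegree (θ : K → ℂ) ^ 2 else 0) := by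
  classical
  rw [← card_hom_units]
  haveI : Finite (K →* ℂˣ) := Nat.finite_of_card_ne_zero (by rw [card_hom_units]; exact Nat.card_pos.ne')
  letI := Fintype.ofFinite (K →* ℂˣ)
  let g : (K →* ℂˣ) → Cfsg.IrrCharacter K := fun l => ⟨_, isIrr_of_hom l⟩
  have hg : Function.Injective g := fun l l' h =>
    MonoidHom.ext fun k => Units.ext (congrFun (congrArg Subtype.val h) k)
  have hd : ∀ l, Cfsg.charDegree (g l : K → ℂ) = 1 := fun l => by
    haveI := Fintype.ofFinite K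
    have := apply_one (isCharacter_of_irr (g l).2)
    have h1 : (g l : K → ℂ) 1 = 1 := by show ((l 1 : ℂˣ) : ℂ) = 1; rw [map_one, Units.val_one]
    rw [h1] at this
    exact_mod_cast this.symm
  refine le_trans (le_of_eq ?_) (Finset.sum_le_sum_of_subset (Finset.subset_univ (Finset.univ.image g)))
  rw [Finset.sum_image fun a _ b _ h => hg h, Nat.card_eq_fintype_card, Finset.sum_congr rfl (g := fun _ => 1)
    (fun l _ => by rw [hd, if_pos h1, one_pow]), Finset.sum_const, Finset.card_univ, smul_eq_mul, mul_one]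

include hC in
/-- Characters of smaller degree dominate. -/
theorem degree_bound [Fintype K] [Fintype (Cfsg.IrrCharacter K)] [DecidableEq (Cfsg.IrrCharacter K)]
    [Group.IsNilpotent K]
    (hbig : ∀ p : ℕ, p.Prime → IsPGroup p K → ¬ IsMulCommutative K →
      4 * K.index ^ 2 + 1 < Nat.card (Abelianization K))
    (θ₀ : Cfsg.IrrCharacter K) (hm : 1 < Cfsg.charDegree (θ₀ : K → ℂ)) :
    2 * K.index * Cfsg.charDegree (θ₀ : K → ℂ) < ∑ θ ∈ Finset.univ.erase (oneChar : Cfsg.IrrCharacter K),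
      (if Cfsg.charDegree (θ : K → ℂ) < Cfsg.charDegree (θ₀ : K → ℂ) then Cfsg.charDegree (θ : K → ℂ) ^ 2 else 0) := by
  classical
  set m := Cfsg.charDegree (θ₀ : K → ℂ) with hm'
  have hsum := sum_erase_add K (fun d => d < m) hm
  set T := ∑ θ ∈ Finset.univ.erase (oneChar : Cfsg.IrrCharacter K),
      (if Cfsg.charDegree (θ : K → ℂ) < m then Cfsg.charDegree (θ : K → ℂ) ^ 2 else 0)
  have he : 0 < K.index := Nat.pos_of_ne_zero Subgroup.index_ne_zero_of_finite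
  obtain ⟨p, hp, hpm⟩ := Nat.exists_prime_and_dvd hm.ne'
  haveI := Fact.mk hp
  have hmK : m ∣ Nat.card K := degree_dvd θ₀
  by_cases hpg : ∃ q : ℕ, q.Prime ∧ IsPGroup q K
  · obtain ⟨q, hq, hqK⟩ := hpg
    haveI := Fact.mk hq
    have hnc : ¬ IsMulCommutative K := fun h => by haveI := h; exact hm.ne' (charDegree_comm θ₀.2)
    have h1 := hbig q hq hqK hnc
    have h2 := card_ab_le K (fun d => d < m) hm
    have h3 : m ^ 2 ≤ 1 + T := by
      rw [hsum]
      refine (pgroup_bound hqK θ₀ hm).trans (le_of_eq ?_)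
      rw [Finset.sum_filter]
    rw [← hsum] at h2
    rcases le_or_gt m (2 * K.index) with h | h
    · have : 2 * K.index * m ≤ 2 * K.index * (2 * K.index) := Nat.mul_le_mul_left _ h
      nlinarith
    · nlinarith
  · obtain ⟨P, R, ⟨e⟩, hcop, hpR⟩ := exists_split_nilpotent K p
    haveI : Nontrivial R := by
      rw [Subgroup.nontrivial_iff_ne_bot]
      rintro rfl
      refine hpg ⟨p, hp, fun x => ?_⟩
      obtain ⟨j, hj⟩ := P.2 (e x).1
      refine ⟨j, e.injective ?_⟩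
      rw [map_pow, map_one]
      exact Prod.ext hj (Subsingleton.elim _ _)
    haveI : Fintype (Cfsg.IrrCharacter (P : Subgroup K)) := Fintype.ofFinite _
    haveI : Fintype (Cfsg.IrrCharacter R) := Fintype.ofFinite _
    obtain ⟨α, β, hα, hβ, he0⟩ := exists_prodChar e θ₀.2
    have hmul : m = Cfsg.charDegree α * Cfsg.charDegree β := by rw [hm', he0, charDegree_prodChar e hα hβ]
    have hr : ¬ p ∣ Cfsg.charDegree β := fun h => hpR (h.trans (degree_dvd ⟨β, hβ⟩))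
    have hpa : p ∣ Cfsg.charDegree α := ((hp.dvd_mul).1 (hmul ▸ hpm)).resolve_right hr
    have ha : 1 < Cfsg.charDegree α := hp.one_lt.trans_le (Nat.le_of_dvd (charDegree_pos hα) hpa)
    obtain ⟨β₀, hβ₀1, hβ₀d⟩ : ∃ β₀ : Cfsg.IrrCharacter R, (β₀ : R → ℂ) ≠ (fun _ => 1) ∧
        Cfsg.charDegree (β₀ : R → ℂ) = Cfsg.charDegree β := by
      by_cases h : β = fun _ => 1
      · obtain ⟨β₁, h1, h2⟩ := exists_linear_ne_one (R : Type u)
        refine ⟨β₁, h1, ?_⟩
        subst h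
        have := apply_one (isCharacter_of_irr hβ)
        rw [h2]
        exact_mod_cast this
      · exact ⟨⟨β, hβ⟩, h, rfl⟩
    have hA := pgroup_bound P.2 ⟨α, hα⟩ ha
    have hB := factor_bound K hC e hcop β₀ hβ₀1
    rw [hβ₀d] at hB
    have hP := sum_mul_le e
      (Finset.univ.filter fun α' : Cfsg.IrrCharacter (P : Subgroup K) => Cfsg.charDegree (α' : ↥(P : Subgroup K) → ℂ) < Cfsg.charDegree α)
      (Finset.univ.filter fun β' : Cfsg.IrrCharacter R => Cfsg.charDegree (β' : R → ℂ) ≤ Cfsg.charDegree β)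
      (fun d => d < m) (fun a' ha' b' hb' => by
        rw [hmul]
        exact Nat.mul_lt_mul_of_lt_of_le (Finset.mem_filter.1 ha').2 (Finset.mem_filter.1 hb').2 (charDegree_pos hβ))
    have h := (Nat.mul_le_mul hA hB).trans hP
    rw [← hsum] at h
    change Cfsg.charDegree α ^ 2 * (1 + K.index * Cfsg.charDegree β ^ 2) ≤ 1 + T at h
    rw [hmul]
    set a := Cfsg.charDegree α
    set r := Cfsg.charDegree β
    have hr1 : 1 ≤ r := charDegree_pos hβ
    have har : 2 ≤ a * r := le_trans (by omega) (Nat.mul_le_mul le_rfl hr1 : a * 1 ≤ a * r)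
    have h5 : 2 * (K.index * (a * r)) ≤ (a * r) * (K.index * (a * r)) := Nat.mul_le_mul_right _ har
    have h6 : 2 ≤ a ^ 2 := by nlinarith
    nlinarith

include hC in
/-- At least two characters have least degree. -/
theorem linear_bound [Fintype K] [Fintype (Cfsg.IrrCharacter K)] [DecidableEq (Cfsg.IrrCharacter K)]
    [Group.IsNilpotent K] (hK : K ≠ ⊥) (he : Nat.card K ≠ K.index + 1)
    (hbig : ∀ p : ℕ, p.Prime → IsPGroup p K → ¬ IsMulCommutative K →
      4 * K.index ^ 2 + 1 < Nat.card (Abelianization K)) :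
    0 < ∑ θ ∈ Finset.univ.erase (oneChar : Cfsg.IrrCharacter K),
      (if Cfsg.charDegree (θ : K → ℂ) ≤ 1 then Cfsg.charDegree (θ : K → ℂ) ^ 2 else 0) ∧
    ∑ θ ∈ Finset.univ.erase (oneChar : Cfsg.IrrCharacter K),
      (if Cfsg.charDegree (θ : K → ℂ) ≤ 1 then Cfsg.charDegree (θ : K → ℂ) ^ 2 else 0) ≠ K.index := by
  classical
  haveI : Nontrivial K := (Subgroup.nontrivial_iff_ne_bot _).2 hK
  have hsum := sum_erase_add K (fun d => d ≤ 1) le_rfl
  have hab := card_ab_le K (fun d => d ≤ 1) le_rfl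
  have hab1 : 1 < Nat.card (Abelianization K) := by
    haveI : Nontrivial (Abelianization K) :=
      QuotientGroup.nontrivial_iff.2 (Group.IsSolvable.commutator_lt_top_of_nontrivial K).ne
    exact Finite.one_lt_card
  rw [← hsum] at hab
  set T := ∑ θ ∈ Finset.univ.erase (oneChar : Cfsg.IrrCharacter K),
      (if Cfsg.charDegree (θ : K → ℂ) ≤ 1 then Cfsg.charDegree (θ : K → ℂ) ^ 2 else 0)
  refine ⟨by omega, fun hT => ?_⟩
  by_cases hcomm : IsMulCommutative K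
  · have hall : ∑ θ : Cfsg.IrrCharacter K,
        (if Cfsg.charDegree (θ : K → ℂ) ≤ 1 then Cfsg.charDegree (θ : K → ℂ) ^ 2 else 0) = Nat.card K := by
      rw [← sum_sq_degree (G := K)]
      refine Finset.sum_congr rfl fun θ _ => if_pos ?_
      haveI := hcomm
      rw [charDegree_comm θ.2]
    rw [← hsum, hT] at hall
    omega
  by_cases hpg : ∃ q : ℕ, q.Prime ∧ IsPGroup q K
  · obtain ⟨q, hq, hqK⟩ := hpg
    have := hbig q hq hqK hcomm
    have : K.index ≤ 4 * K.index ^ 2 := by nlinarith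
    omega
  · obtain ⟨p, hp, hpK⟩ := Nat.exists_prime_and_dvd (Finite.one_lt_card (α := K)).ne'
    haveI := Fact.mk hp
    obtain ⟨P, R, ⟨e⟩, hcop, hpR⟩ := exists_split_nilpotent K p
    haveI : Nontrivial R := by
      rw [Subgroup.nontrivial_iff_ne_bot]
      rintro rfl
      refine hpg ⟨p, hp, fun x => ?_⟩
      obtain ⟨j, hj⟩ := P.2 (e x).1
      refine ⟨j, e.injective ?_⟩
      rw [map_pow, map_one]
      exact Prod.ext hj (Subsingleton.elim _ _)
    haveI : Nontrivial (P : Subgroup K) :=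
      (Subgroup.nontrivial_iff_ne_bot _).2 (P.ne_bot_of_dvd_card hpK)
    haveI : Fintype (Cfsg.IrrCharacter (P : Subgroup K)) := Fintype.ofFinite _
    haveI : Fintype (Cfsg.IrrCharacter R) := Fintype.ofFinite _
    haveI : Group.IsNilpotent (P : Subgroup K) := P.2.isNilpotent
    obtain ⟨α₁, hα1, hαd⟩ := exists_linear_ne_one ((P : Subgroup K) : Type u)
    obtain ⟨β₁, hβ1, hβd⟩ := exists_linear_ne_one (R : Type u)
    have hA := factor_bound K hC (e.trans MulEquiv.prodComm) hcop.symm α₁ hα1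
    have hB := factor_bound K hC e hcop β₁ hβ1
    rw [hαd] at hA
    rw [hβd] at hB
    have hP := sum_mul_le e
      (Finset.univ.filter fun α' : Cfsg.IrrCharacter (P : Subgroup K) => Cfsg.charDegree (α' : ↥(P : Subgroup K) → ℂ) ≤ 1)
      (Finset.univ.filter fun β' : Cfsg.IrrCharacter R => Cfsg.charDegree (β' : R → ℂ) ≤ 1)
      (fun d => d ≤ 1) (fun a' ha' b' hb' =>
        le_trans (Nat.mul_le_mul (Finset.mem_filter.1 ha').2 (Finset.mem_filter.1 hb').2) (le_of_eq (mul_one 1)))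
    have h := (Nat.mul_le_mul hA hB).trans hP
    rw [← hsum, hT] at h
    have := Nat.pos_of_ne_zero (Subgroup.index_ne_zero_of_finite (H := K))
    nlinarith

end Bounds

/-- The coherence theorem. -/
theorem coherent {X : Type u} [Group X] [Fintype X] {G : Type v} [Group G] [Fintype G] (K : Subgroup X) [K.Normal]
    (hK : K ≠ ⊥) (hKtop : K ≠ ⊤) (hC : ∀ n ∈ K, n ≠ 1 → Subgroup.centralizer ({n} : Set X) ≤ K)
    (he : Nat.card K ≠ K.index + 1)
    (hbig : ∀ p : ℕ, p.Prime → IsPGroup p K → ¬ IsMulCommutative K →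
      4 * K.index ^ 2 + 1 < Nat.card (Abelianization K))
    (τ : (X → ℂ) → (G → ℂ))
    (hτ : Cfsg.IsLinearIsometryOn (Cfsg.zspanOn {χ : X → ℂ | Cfsg.IsIrrCharacter X χ ∧ ∃ h ∈ K, χ h ≠ χ 1} {1}ᶜ) τ)
    (hτ1 : ∀ α ∈ Cfsg.zspanOn {χ : X → ℂ | Cfsg.IsIrrCharacter X χ ∧ ∃ h ∈ K, χ h ≠ χ 1} {1}ᶜ, τ α 1 = 0) :
    Cfsg.IsCoherent {χ : X → ℂ | Cfsg.IsIrrCharacter X χ ∧ ∃ h ∈ K, χ h ≠ χ 1} {1}ᶜ τ := by
  classical
  haveI := isNilpotent_kernel K hC hKtop
  haveI := Fintype.ofFinite K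
  haveI : Fintype (Cfsg.IrrCharacter X) := Fintype.ofFinite _
  haveI : Fintype (Cfsg.IrrCharacter K) := Fintype.ofFinite _
  set e := K.index
  have he0 : 0 < e := Nat.pos_of_ne_zero Subgroup.index_ne_zero_of_finite
  set F := Finset.univ.filter fun χ : Cfsg.IrrCharacter X => Rel K (χ : X → ℂ) with hF
  set S : Finset (X → ℂ) := F.image Subtype.val with hS
  have hmemS : ∀ χ, χ ∈ S ↔ Cfsg.IsIrrCharacter X χ ∧ Rel K χ := fun χ => by
    simp only [S, F, Finset.mem_image, Finset.mem_filter, Finset.mem_univ, true_and]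
    exact ⟨fun ⟨c, hc, he'⟩ => he' ▸ ⟨c.2, hc⟩, fun ⟨h1, h2⟩ => ⟨⟨χ, h1⟩, h2, rfl⟩⟩
  have hset : {χ : X → ℂ | Cfsg.IsIrrCharacter X χ ∧ ∃ h ∈ K, χ h ≠ χ 1} = (↑S : Set (X → ℂ)) := by
    ext χ
    simp only [Set.mem_ofPred_eq, Finset.mem_coe, hmemS, CfsgLib.Exceptional.Rel]
  rw [hset] at hτ hτ1 ⊢
  set d : (X → ℂ) → ℕ := fun χ => Cfsg.charDegree χ with hd
  have hdS : ∀ χ ∈ S, χ 1 = (d χ : ℂ) := fun χ h => apply_one (isCharacter_of_irr ((hmemS χ).1 h).1)
  have hdeg : ∀ χ ∈ S, d χ = e * pdeg K χ := fun χ h => (pdeg_spec K hC ((hmemS χ).1 h).1 ((hmemS χ).1 h).2).2.2.2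
  have hpos : ∀ χ ∈ S, 0 < pdeg K χ := fun χ h => (pdeg_spec K hC ((hmemS χ).1 h).1 ((hmemS χ).1 h).2).1
  set S₁ := S.filter fun χ => pdeg K χ ≤ 1 with hS₁
  -- the base
  obtain ⟨hT0, hTe⟩ := linear_bound K hC hK he hbig
  have hcount := sum_pdeg_sq K hC (fun d => d ≤ 1)
  rw [← hF] at hcount
  have hS₁card : e * S₁.card = ∑ θ ∈ Finset.univ.erase (oneChar : Cfsg.IrrCharacter K),
      (if Cfsg.charDegree (θ : K → ℂ) ≤ 1 then Cfsg.charDegree (θ : K → ℂ) ^ 2 else 0) := by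
    rw [← hcount]
    congr 1
    rw [hS₁, hS, Finset.filter_image, Finset.card_image_of_injective _ Subtype.val_injective, Finset.card_filter]
    refine Finset.sum_congr rfl fun χ hχ => ?_
    split_ifs with h
    · have := (pdeg_spec K hC χ.2 (Finset.mem_filter.1 hχ).2).1
      rw [show pdeg K (χ : X → ℂ) = 1 by omega, one_pow]
    · rfl
  have h2S₁ : 2 ≤ S₁.card := by
    rw [← hS₁card] at hT0 hTe
    by_contra h
    rcases (by omega : S₁.card = 0 ∨ S₁.card = 1) with h' | h'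
    · simp [h'] at hT0
    · exact hTe (by rw [h', mul_one])
  have hS₁mem : ∀ χ ∈ S₁, χ ∈ S ∧ d χ = e := fun χ h => by
    obtain ⟨h1, h2⟩ := Finset.mem_filter.1 h
    refine ⟨h1, ?_⟩
    rw [hdeg χ h1, show pdeg K χ = 1 by have := hpos χ h1; omega, mul_one]
  obtain ⟨ψ₀, hψ₀, ψ₁, hψ₁, hψne⟩ := Finset.one_lt_card.1 (show 1 < S₁.card by omega)
  have hbase : Cfsg.IsCoherent (↑S₁ : Set (X → ℂ)) {1}ᶜ τ := by
    have hsub : (↑S₁ : Set (X → ℂ)) ⊆ ↑S := Finset.coe_subset.2 (Finset.filter_subset _ _)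
    have hirr : ∀ i : S₁, Cfsg.IsIrrCharacter X (i : X → ℂ) := fun i => ((hmemS _).1 (hS₁mem _ i.2).1).1
    have hdiff : ∀ i j : S₁, (i : X → ℂ) - j ∈ Cfsg.zspanOn (↑S : Set (X → ℂ)) {1}ᶜ := fun i j =>
      mem_on_one.2 ⟨sub_mem (S := Submodule ℤ (X → ℂ)) (Submodule.subset_span (hsub i.2))
        (Submodule.subset_span (hsub j.2)),
        by rw [Pi.sub_apply, hdS _ (hS₁mem _ i.2).1, hdS _ (hS₁mem _ j.2).1, (hS₁mem _ i.2).2, (hS₁mem _ j.2).2, sub_self]⟩
    haveI : Nonempty S₁ := ⟨⟨ψ₀, hψ₀⟩⟩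
    obtain ⟨ε, f, hε, hf, hτf⟩ := exceptional_family (fun i : S₁ => (i : X → ℂ)) hirr Subtype.val_injective
      ⟨⟨ψ₀, hψ₀⟩, ⟨ψ₁, hψ₁⟩, fun h => hψne (congrArg Subtype.val h)⟩ τ
      (fun i j => hτ.2.2.2 _ (hdiff i j)) (fun i j => hτ1 _ (hdiff i j))
      (fun i j k l => hτ.2.2.1 _ (hdiff i j) _ (hdiff k l))
      (fun i j k => by rw [← hτ.1 _ (hdiff i j) _ (hdiff j k), sub_add_sub_cancel])
    have horth : OrthoSet (↑S₁ : Set (X → ℂ)) := OrthoSet.of_irr fun χ h => ((hmemS _).1 (hS₁mem χ h).1).1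
    have hτS₁ : Cfsg.IsLinearIsometryOn (Cfsg.zspanOn (↑S₁ : Set (X → ℂ)) {1}ᶜ) τ :=
      isometry_mono hτ (zspanOn_mono hsub _)
    refine coherent_of horth d (fun χ h => hdS χ (hS₁mem χ h).1) hψ₀ (by rw [(hS₁mem ψ₀ hψ₀).2]; exact he0.ne')
      ⟨ψ₁, hψ₁, hψne.symm⟩ τ hτS₁ (fun χ => if h : χ ∈ S₁ then ε • (f ⟨χ, h⟩ : G → ℂ) else 0) ?_ ?_ ?_
    · intro χ hχ
      rw [dif_pos hχ]
      rcases hε with rfl | rfl
      · rw [one_smul]; exact gen_of_character (isCharacter_of_irr (f _).2)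
      · rw [neg_one_smul, ← neg_one_zsmul]; exact gen_zsmul (gen_of_character (isCharacter_of_irr (f _).2)) _
    · intro χ hχ φ hφ
      rw [dif_pos hχ, dif_pos hφ, classInner_smul_left, CfsgLib.Exceptional.classInner_smul_right, ← mul_assoc]
      rw [show ε * (starRingEnd ℂ) ε = 1 by rcases hε with rfl | rfl <;> simp, one_mul]
      by_cases h : χ = φ
      · subst h; rw [classInner_self (f _).2, classInner_self (hirr ⟨χ, hχ⟩)]
      · rw [classInner_ne (f _).2 (f _).2 (fun e' => h (congrArg Subtype.val (hf (Subtype.ext e')))),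
          classInner_ne (hirr ⟨χ, hχ⟩) (hirr ⟨φ, hφ⟩) h]
    · intro χ hχ _
      rw [dif_pos hχ, dif_pos hψ₀, (hS₁mem χ hχ).2, (hS₁mem ψ₀ hψ₀).2, ← smul_sub, ← smul_sub, ← smul_sub]
      rw [hτ.2.1 _ (hdiff ⟨χ, hχ⟩ ⟨ψ₀, hψ₀⟩), hτf ⟨χ, hχ⟩ ⟨ψ₀, hψ₀⟩]
  -- adjoining the others by increasing degree
  have hstep : ∀ χ ∈ S, χ ∉ S₁ → 2 * e * d χ < ∑ ξ ∈ S.filter (fun ξ => d ξ < d χ), d ξ ^ 2 := by
    intro χ hχ hχ1
    obtain ⟨hirr, hrel⟩ := (hmemS χ).1 hχ
    have hm : 1 < pdeg K χ := by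
      by_contra h
      exact hχ1 (Finset.mem_filter.2 ⟨hχ, by omega⟩)
    obtain ⟨φ, hφ, hind⟩ := Cfsg.Agent.S1528.result K hC χ hirr hrel
    have hφ1 : φ ≠ fun _ => 1 := by
      rintro rfl
      have h1 := hdS χ hχ
      rw [hind, indFun_apply_one, mul_one] at h1
      have h1' : d χ = e := by rw [hind]; exact_mod_cast h1.symm
      rw [hdeg χ hχ] at h1'
      have : e * 1 < e * pdeg K χ := Nat.mul_lt_mul_of_pos_left hm he0
      omega
    have hpφ : pdeg K χ = Cfsg.charDegree φ := by rw [hind, pdeg_induced K hC hφ hφ1]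
    have hb := degree_bound K hC hbig ⟨φ, hφ⟩ (hpφ ▸ hm)
    have hc := sum_pdeg_sq K hC (fun n => n < pdeg K χ)
    rw [← hF] at hc
    simp only [← hpφ] at hb
    rw [← hc] at hb
    have hR : ∑ ξ ∈ S.filter (fun ξ => d ξ < d χ), d ξ ^ 2 =
        e ^ 2 * ∑ ξ ∈ F, (if pdeg K (ξ : X → ℂ) < pdeg K χ then pdeg K (ξ : X → ℂ) ^ 2 else 0) := by
      rw [Finset.sum_filter, hS, Finset.sum_image Subtype.val_injective.injOn, Finset.mul_sum]
      refine Finset.sum_congr rfl fun ξ hξ => ?_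
      have hξS : (ξ : X → ℂ) ∈ S := Finset.mem_image_of_mem _ hξ
      rw [hdeg _ hξS, hdeg χ hχ]
      by_cases h : pdeg K (ξ : X → ℂ) < pdeg K χ
      · rw [if_pos h, if_pos (Nat.mul_lt_mul_of_pos_left h he0)]; ring
      · rw [if_neg h, if_neg (fun h' => h (Nat.lt_of_mul_lt_mul_left h')), mul_zero]
    rw [hR, hdeg χ hχ, pow_two]
    calc 2 * e * (e * pdeg K χ) = e * (2 * e * pdeg K χ) := by ring
      _ < e * (e * ∑ ξ ∈ F, (if pdeg K (ξ : X → ℂ) < pdeg K χ then pdeg K (ξ : X → ℂ) ^ 2 else 0)) :=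
          Nat.mul_lt_mul_of_pos_left hb he0
      _ = _ := (mul_assoc _ _ _).symm
  have hmain : ∀ (n : ℕ) (T : Finset (X → ℂ)), T.card = n → S₁ ⊆ T → T ⊆ S →
      (∀ η ∈ T, ∀ ξ ∈ S, d ξ < d η → ξ ∈ T) → Cfsg.IsCoherent (↑T : Set (X → ℂ)) {1}ᶜ τ := by
    intro n
    induction n with
    | zero =>
      intro T hT hT1 _ _
      exact absurd (hT1 hψ₀) (by rw [Finset.card_eq_zero.1 hT]; simp)
    | succ n ih =>
      intro T hT hT1 hTS hdown
      by_cases hTeq : T ⊆ S₁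
      · rwa [Finset.Subset.antisymm hTeq hT1]
      obtain ⟨ξ₀, hξ₀, hξ₀'⟩ := Finset.not_subset.1 hTeq
      obtain ⟨χ, hχ, hmax⟩ := Finset.exists_max_image (T \ S₁) d ⟨ξ₀, Finset.mem_sdiff.2 ⟨hξ₀, hξ₀'⟩⟩
      obtain ⟨hχT, hχ1⟩ := Finset.mem_sdiff.1 hχ
      have hT' : (T.erase χ).card = n := by rw [Finset.card_erase_of_mem hχT, hT, Nat.add_sub_cancel]
      have hsub1 : S₁ ⊆ T.erase χ := fun x hx => Finset.mem_erase.2 ⟨fun h => hχ1 (h ▸ hx), hT1 hx⟩
      have hcoh := ih (T.erase χ) hT' hsub1 ((Finset.erase_subset _ _).trans hTS) (fun η hη ξ hξ hlt => by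
        refine Finset.mem_erase.2 ⟨fun h => ?_, hdown η (Finset.mem_of_mem_erase hη) ξ hξ hlt⟩
        subst h
        by_cases hη1 : η ∈ S₁
        · rw [(hS₁mem η hη1).2, hdeg ξ hξ] at hlt
          have := Nat.mul_le_mul_left e (hpos ξ hξ : 1 ≤ pdeg K ξ)
          omega
        · exact absurd hlt (not_lt.2 (hmax η (Finset.mem_sdiff.2 ⟨Finset.mem_of_mem_erase hη, hη1⟩))))
      have hins : insert χ (T.erase χ) = T := Finset.insert_erase hχT
      have hmono : (↑T : Set (X → ℂ)) ⊆ ↑S := Finset.coe_subset.2 hTS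
      have := coherent_insert (T.erase χ) χ (fun ξ h => ((hmemS ξ).1 (hTS (Finset.mem_of_mem_erase h))).1)
        ((hmemS χ).1 (hTS hχT)).1 (Finset.notMem_erase _ _) d
        (fun ξ h => hdS ξ (hTS (hins ▸ h))) τ
        (by rw [hins]; exact isometry_mono hτ (zspanOn_mono hmono _))
        (by rw [hins]; exact fun α hα => hτ1 α (zspanOn_mono hmono _ hα))
        hcoh ψ₀ (hsub1 hψ₀) (by rw [(hS₁mem ψ₀ hψ₀).2, hdeg χ (hTS hχT)]; exact dvd_mul_right _ _)
        (by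
          rw [(hS₁mem ψ₀ hψ₀).2]
          refine (hstep χ (hTS hχT) hχ1).trans_le (Finset.sum_le_sum_of_subset fun ξ hξ => ?_)
          obtain ⟨h1, h2⟩ := Finset.mem_filter.1 hξ
          exact Finset.mem_erase.2 ⟨fun h => by rw [h] at h2; omega, hdown χ hχT ξ h1 h2⟩)
      rwa [hins] at this
  exact hmain S.card S rfl (Finset.filter_subset _ _) (Finset.Subset.refl _) (fun _ _ ξ hξ _ => hξ)

end CfsgLib.FeitCoh
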